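import Cfsg.Agent.H6.S5.A1

/-! Exceptional characters for an automizer of order seven: the combinatorial part. -/

set_option autoImplicit false
set_option linter.unusedSectionVars false

namespace Cfsg.Agent.H2.S7

open Finset
open Cfsg.Agent.H6.S5 (sum_sub_le zero_off)

/-- multiplicities of linear characters of a TI-subgroup in the irreducible characters -/
structure XD (I Λ : Type*) [Fintype I] [Fintype Λ] where
  o : I
  d : I → ℤ
  e : Λ
  c : Λ → Λ → ℤ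
  m : Λ → I → ℤ
  d_pos : ∀ ψ, 0 < d ψ
  big : 127 ≤ Fintype.card Λ
  c_e : c e e = 7
  c_e' : ∀ l, l ≠ e → c l e = 0
  c_symm : ∀ l k, c l k = c k l
  c_self : ∀ l, l ≠ e → c l l = 1
  c_cases : ∀ l k, l ≠ e → c l k = 0 ∨ c l k = 1
  c_card : ∀ l, l ≠ e → ∑ k, c l k = 7
  inner : ∀ l k l' k', ∑ ψ, (m l ψ - m k ψ) * (m l' ψ - m k' ψ) = c l l' - c l k' - c k l' + c k k'
  m_o : ∀ l, l ≠ e → m l o = 0
  m_e : m e o = 1
  m_nonneg : ∀ l ψ, 0 ≤ m l ψ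
  sum_m : ∀ ψ, ∑ l, m l ψ = d ψ
  deg : ∀ l k, ∑ ψ, d ψ * (m l ψ - m k ψ) = 0
  ker : ∀ ψ, (∀ l, l ≠ e → m l ψ = 0) → ψ = o
  prod : ∀ ψ, ∃ b : I → ℤ, (∀ χ, 0 ≤ b χ) ∧ b o = 1 ∧ ∑ χ, b χ * d χ = d ψ ^ 2 ∧
    ∑ χ, b χ * m e χ = ∑ l, m l ψ ^ 2

namespace XD

variable {I Λ : Type*} [Fintype I] [Fintype Λ] [DecidableEq I] [DecidableEq Λ] (D : XD I Λ)
  {l k l' k' : Λ} {ψ : I}

theorem norm (hl : l ≠ D.e) (hk : k ≠ D.e) :
    ∑ ψ, (D.m l ψ - D.m k ψ) * (D.m l ψ - D.m k ψ) = 2 - 2 * D.c l k := by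
  rw [D.inner, D.c_self l hl, D.c_self k hk, D.c_symm k l]; ring

theorem m_eq (hl : l ≠ D.e) (h : D.c l k = 1) (ψ : I) : D.m l ψ = D.m k ψ := by
  have hk : k ≠ D.e := by rintro rfl; simp [D.c_e' l hl] at h
  exact sub_eq_zero.1 (zero_off (fun ψ => D.m l ψ - D.m k ψ) ∅ (by simp [D.norm hl hk, h]) (by simp))

theorem c_trans (hl : l ≠ D.e) (h : D.c l k = 1) (h' : D.c l k' = 1) : D.c k k' = 1 := by
  have hk : k ≠ D.e := by rintro rfl; simp [D.c_e' l hl] at h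
  have hk' : k' ≠ D.e := by rintro rfl; simp [D.c_e' l hl] at h'
  have := D.norm hk hk'
  simp only [← D.m_eq hl h, ← D.m_eq hl h', sub_self, mul_zero, sum_const_zero] at this
  omega

theorem two (hl : l ≠ D.e) (hk : k ≠ D.e) (h : D.m l ψ ≠ D.m k ψ) : D.c l k = 0 ∧
    (D.m l ψ - D.m k ψ) ^ 2 = 1 ∧ ∃ χ, χ ≠ ψ ∧ D.m l χ - D.m k χ = -(D.m l ψ - D.m k ψ) ∧
      ∀ φ, φ ≠ ψ → φ ≠ χ → D.m l φ - D.m k φ = 0 := by
  have c0 := (D.c_cases l k hl).resolve_right fun e => h (D.m_eq hl e ψ)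
  have n := D.norm hl hk
  have dg := D.deg l k
  rw [c0] at n
  replace h := sub_ne_zero.2 h
  generalize hf : (fun ψ => D.m l ψ - D.m k ψ) = f
  have hf' : ∀ ψ, D.m l ψ - D.m k ψ = f ψ := congrFun hf
  simp only [hf'] at *
  obtain ⟨χ, h1, h2⟩ : ∃ χ, χ ≠ ψ ∧ f χ ≠ 0 := by
    by_contra! hh
    rw [sum_eq_single ψ (fun b _ hb => by simp [hh b hb]) (by simp)] at dg
    exact h ((mul_eq_zero.1 dg).resolve_left (D.d_pos ψ).ne')
  have a := sum_sub_le (fun i => f i * f i) (fun i => mul_self_nonneg _) {ψ, χ}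
  rw [sum_pair h1.symm] at a
  have a1 := mul_self_pos.2 h
  have a2 := mul_self_pos.2 h2
  have z : ∀ φ, φ ≠ ψ → φ ≠ χ → f φ = 0 := fun φ e e' =>
    zero_off f {ψ, χ} (by rw [sum_pair h1.symm]; omega) (by simp [e, e'])
  rw [← sum_subset (subset_univ {ψ, χ}) (fun φ _ e => by simp at e; simp [z φ e.1 e.2]),
    sum_pair h1.symm] at dg
  have := D.d_pos ψ
  have := D.d_pos χ
  refine ⟨c0, by nlinarith, χ, h1, ?_, z⟩
  rcases mul_self_eq_one_iff.1 (show f ψ * f ψ = 1 by omega) with e | e <;>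
    rcases mul_self_eq_one_iff.1 (show f χ * f χ = 1 by omega) with e' | e' <;>
    simp [e, e'] at dg ⊢ <;> omega

theorem four (hl : l ≠ D.e) (hk : k ≠ D.e) (hl' : l' ≠ D.e) (hk' : k' ≠ D.e) (h : D.m l ψ ≠ D.m k ψ)
    (e1 : D.m l' ψ = D.m l ψ) (e2 : D.m k' ψ = D.m k ψ) : D.c l l' = 1 ∨ D.c k k' = 1 := by
  by_contra! hh
  obtain ⟨-, a1, χ, a2, a3, a4⟩ := D.two hl hk h
  obtain ⟨-, -, χ', b2, b3, b4⟩ := D.two hl' hk' (ψ := ψ) (by rwa [e1, e2])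
  have i := D.inner l k l' k'
  rw [(D.c_cases l l' hl).resolve_right hh.1, (D.c_cases k k' hk).resolve_right hh.2,
    (D.two hl hk' (ψ := ψ) (by rwa [e2])).1, (D.two hk hl' (ψ := ψ) (by rw [e1]; exact h.symm)).1,
    ← sum_subset (subset_univ {ψ, χ}) (fun φ _ e => by simp at e; simp [a4 φ e.1 e.2]),
    sum_pair a2.symm, a3, e1, e2] at i
  by_cases e : χ = χ'
  · rw [e, b3, e1, e2] at i; nlinarith
  · rw [b4 χ a2 e] at i; nlinarith

theorem exists_new (s : Finset Λ) (hs : ∀ l ∈ s, l ≠ D.e) (h5 : s.card ≤ 7) :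
    ∃ k, k ≠ D.e ∧ ∀ l ∈ s, D.c l k = 0 := by
  by_contra! hh
  have h1 : ∑ k ∈ univ.erase D.e, (1 : ℤ) ≤ ∑ k ∈ univ.erase D.e, ∑ l ∈ s, D.c l k :=
    sum_le_sum fun k hk => by
      obtain ⟨l, hl, e⟩ := hh k (ne_of_mem_erase hk)
      rw [← (D.c_cases l k (hs l hl)).resolve_left e]
      exact single_le_sum (f := fun l => D.c l k)
        (fun l hl => by rcases D.c_cases l k (hs l hl) with e | e <;> simp [e]) hl
  rw [sum_comm, sum_congr rfl fun l hl => (sum_erase _ (D.c_e' l (hs l hl))).trans (D.c_card l (hs l hl))]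
    at h1
  have := D.big
  simp [card_erase_of_mem] at h1
  omega

theorem fam (hl : l ≠ D.e) (n : ℕ) (hn : n ≤ 7) : ∃ s : Finset Λ, l ∈ s ∧ s.card = n + 1 ∧
    (∀ l ∈ s, l ≠ D.e) ∧ ∀ a ∈ s, ∀ b ∈ s, a ≠ b → D.c a b = 0 := by
  induction n with
  | zero => exact ⟨{l}, by simp, by simp, by simpa, by simp⟩
  | succ n ih =>
    obtain ⟨s, h1, h2, h3, h4⟩ := ih (by omega)
    obtain ⟨k, k1, k2⟩ := D.exists_new s h3 (by omega)
    have : k ∉ s := fun e => by simpa [D.c_self k k1] using k2 k e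
    refine ⟨insert k s, by simp [h1], by simp [this, h2], by simpa [k1] using h3, ?_⟩
    simp only [mem_insert]
    rintro a (rfl | ha) b (rfl | hb) e
    exacts [absurd rfl e, D.c_symm _ _ ▸ k2 b hb, k2 a ha, h4 a ha b hb e]

theorem sum_e (f : Λ → ℤ) {g x : ℤ} (h : ∀ l, l ≠ D.e → D.m l ψ = g + f l) (h' : D.m D.e ψ = g + x)
    (f0 : f D.e = 0) : D.d ψ = g * Fintype.card Λ + x + ∑ l, f l := by
  rw [← D.sum_m, ← add_sum_erase _ _ (mem_univ D.e), sum_congr rfl fun l hl => h l (ne_of_mem_erase hl),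
    sum_add_distrib, sum_erase _ f0, h', sum_const, card_erase_of_mem (mem_univ _), card_univ, nsmul_eq_mul,
    Nat.cast_sub (by have := D.big; omega)]
  push_cast; ring

theorem norm_e (hk : k ≠ D.e) : ∑ ψ, (D.m D.e ψ - D.m k ψ) * (D.m D.e ψ - D.m k ψ) = 8 := by
  rw [D.inner, D.c_e, D.c_self k hk, D.c_symm D.e k, D.c_e' k hk]; rfl

theorem exc {ε g : ℤ} (hl : l ≠ D.e) (hε : ε ^ 2 = 1) (h : ∀ k, k ≠ D.e → D.m k ψ = g + ε * D.c l k) :
    D.m D.e ψ = g := by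
  obtain ⟨s, s1, s2, s3, s4⟩ := D.fam hl 7 le_rfl
  obtain ⟨k, hk⟩ : (s.erase l).Nonempty := by rw [← card_pos, card_erase_of_mem s1]; omega
  have ε0 : ε ≠ 0 := by rintro rfl; simp at hε
  have v : ∀ j ∈ s.erase l, D.m l ψ - D.m j ψ = ε := fun j hj => by
    rw [h l hl, h j (s3 j (mem_of_mem_erase hj)), D.c_self l hl,
      s4 l s1 j (mem_of_mem_erase hj) (ne_of_mem_erase hj).symm]; ring
  have : Nonempty I := ⟨D.o⟩
  choose! χ c1 c2 c3 using fun j (hj : j ∈ s.erase l) =>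
    (D.two hl (s3 j (mem_of_mem_erase hj)) (ψ := ψ) (sub_ne_zero.1 (by rwa [v j hj]))).2.2
  have sm : ∀ j ∈ s.erase l, ∀ f : I → ℤ, ∑ φ, f φ * (D.m l φ - D.m j φ) = ε * (f ψ - f (χ j)) :=
    fun j hj f => by
      rw [← sum_subset (subset_univ {ψ, χ j}) (fun φ _ e => by simp at e; simp [c3 j hj φ e.1 e.2]),
        sum_pair (c1 j hj).symm, c2 j hj, v j hj]; ring
  have k1 := s3 k (mem_of_mem_erase hk)
  have kl : D.c k l = 0 := s4 k (mem_of_mem_erase hk) l s1 (ne_of_mem_erase hk)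
  let J := (s.erase l).erase k
  have x1 : ∀ φ ∈ insert ψ (J.image χ), D.m D.e φ - D.m k φ = D.m D.e ψ - g ∧ φ ≠ D.o := by
    have a : D.m k ψ = g := by rw [h k k1, D.c_symm, kl]; ring
    have b : ψ ≠ D.o := by
      rintro rfl; exact ε0 (by rw [← v k hk, D.m_o l hl, D.m_o k k1]; rfl)
    simp only [mem_insert, mem_image]
    rintro φ (rfl | ⟨j, hj, rfl⟩)
    · exact ⟨by rw [a], b⟩
    have j1 := mem_of_mem_erase hj
    have j2 := s3 j (mem_of_mem_erase j1)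
    have := (sm j j1 _).symm.trans (D.inner D.e k l j)
    rw [D.c_symm D.e l, D.c_symm D.e j, D.c_e' l hl, D.c_e' j j2, kl, s4 k (mem_of_mem_erase hk) j
      (mem_of_mem_erase j1) (ne_of_mem_erase hj).symm, a] at this
    refine ⟨by have := (mul_eq_zero.1 this).resolve_left ε0; linarith, fun e => ε0 ?_⟩
    have := c2 j j1
    rw [e, D.m_o l hl, D.m_o j j2, v j j1] at this
    omega
  have x2 : (insert ψ (J.image χ)).card = 7 := by
    rw [card_insert_of_notMem (by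
      simp only [mem_image, not_exists, not_and]
      exact fun j hj => c1 j (mem_of_mem_erase hj)), card_image_of_injOn fun a ha b hb e => by
        by_contra ab
        have a1 := mem_of_mem_erase (mem_coe.1 ha)
        have b1 := mem_of_mem_erase (mem_coe.1 hb)
        have := (sm b b1 _).symm.trans (D.inner l a l b)
        rw [← e, c2 a a1, v a a1, D.c_self l hl, s4 l s1 b (mem_of_mem_erase b1) (ne_of_mem_erase b1).symm,
          s4 a (mem_of_mem_erase a1) l s1 (ne_of_mem_erase a1),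
          s4 a (mem_of_mem_erase a1) b (mem_of_mem_erase b1) ab] at this
        nlinarith, card_erase_of_mem hk, card_erase_of_mem s1, s2]
  generalize insert ψ (J.image χ) = S at x1 x2
  have o1 : D.o ∉ S := fun e => (x1 _ e).2 rfl
  by_contra ne
  have ne' := mul_self_pos.2 (sub_ne_zero.2 ne)
  have z := fun φ => zero_off (fun φ => D.m D.e φ - D.m k φ) (insert D.o S) (i := φ) (by
    rw [D.norm_e k1, sum_insert o1, sum_congr rfl fun φ hφ => by rw [(x1 φ hφ).1], D.m_e, D.m_o k k1]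
    simp [x2]; linarith)
  have dg := D.deg D.e k
  have do1 := D.sum_m D.o
  rw [sum_eq_single D.e (fun l _ hl => D.m_o l hl) (by simp), D.m_e] at do1
  rw [← sum_subset (subset_univ (insert D.o S)) (fun φ _ e => by simp [z φ e]), sum_insert o1,
    sum_congr rfl fun φ hφ => by rw [(x1 φ hφ).1], ← sum_mul, D.m_e, D.m_o k k1, ← do1] at dg
  have := card_nsmul_le_sum S D.d 1 fun φ _ => D.d_pos φ
  simp only [x2, nsmul_eq_mul, mul_one] at this
  rcases Int.eq_one_or_neg_one_of_mul_eq_neg_one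
    (show S.sum D.d * (D.m D.e ψ - g) = -1 by linarith) with e | e <;> omega

theorem types (ψ : I) : ∃ g : ℤ, ((∀ l, l ≠ D.e → D.m l ψ = g) ∧
    D.d ψ = g * Fintype.card Λ + (D.m D.e ψ - g) ∧ (ψ ≠ D.o → (D.m D.e ψ - g) ^ 2 ≤ 7)) ∨
    ∃ l ε, l ≠ D.e ∧ (ε = 1 ∨ ε = -1) ∧ (∀ k, k ≠ D.e → D.m k ψ = g + ε * D.c l k) ∧ D.m D.e ψ = g ∧
      D.d ψ = g * Fintype.card Λ + 7 * ε := by
  obtain ⟨k, hk, -⟩ := D.exists_new ∅ (by simp) (by simp)
  by_cases h : ∀ l, l ≠ D.e → D.m l ψ = D.m k ψ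
  · refine ⟨_, Or.inl ⟨h, by simpa using D.sum_e 0 (x := D.m D.e ψ - D.m k ψ) (by simpa) (by ring) rfl,
      fun e => ?_⟩⟩
    have := sum_sub_le (fun φ => (D.m D.e φ - D.m k φ) * (D.m D.e φ - D.m k φ))
      (fun i => mul_self_nonneg _) {ψ, D.o}
    rw [sum_pair e, D.norm_e hk, D.m_e, D.m_o k hk] at this
    linarith
  push Not at h
  obtain ⟨l, hl, h⟩ := h
  have val : ∀ j, j ≠ D.e → D.m j ψ = D.m l ψ ∨ D.m j ψ = D.m k ψ := fun j hj => by
    by_contra! hh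
    have a := (D.two hl hk h).2.1
    have b := (D.two hj hl hh.1).2.1
    have c := (D.two hj hk hh.2).2.1
    rw [sq_eq_one_iff] at a b c; omega
  wlog H : ∀ j, j ≠ D.e → D.m j ψ = D.m l ψ → D.c l j = 1 generalizing k l
  · push Not at H
    obtain ⟨j, j1, j2, j3⟩ := H
    exact this l hl k hk h.symm (fun j hj => (val j hj).symm) fun i i1 i2 =>
      (D.four hl hk j1 i1 h j2 i2).resolve_left j3
  have a := (D.two hl hk h).2.1
  have b : ∀ j, j ≠ D.e → D.m j ψ = D.m k ψ + (D.m l ψ - D.m k ψ) * D.c l j := fun j hj => by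
    rcases val j hj with e | e
    · rw [H j hj e, e]; ring
    · rw [(D.two hl hj (by rwa [e])).1, e]; ring
  have c := D.exc hl a b
  refine ⟨_, Or.inr ⟨l, _, hl, sq_eq_one_iff.1 a, b, c, ?_⟩⟩
  rw [D.sum_e _ (x := 0) b (by simpa) (by simp [D.c_e' l hl]), ← mul_sum, D.c_card l hl]; ring

theorem types' (hψ : ψ ≠ D.o) : ∃ g : ℤ, 1 ≤ g ∧ (((∀ l, l ≠ D.e → D.m l ψ = g) ∧
    D.d ψ = g * Fintype.card Λ + (D.m D.e ψ - g) ∧ (D.m D.e ψ - g) ^ 2 ≤ 7) ∨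
    ∃ l ε, l ≠ D.e ∧ (ε = 1 ∨ ε = -1) ∧ (∀ k, k ≠ D.e → D.m k ψ = g + ε * D.c l k) ∧ D.m D.e ψ = g) := by
  have hb : (127 : ℤ) ≤ Fintype.card Λ := by exact_mod_cast D.big
  obtain ⟨k, hk, -⟩ := D.exists_new ∅ (by simp) (by simp)
  have N : ∀ {ψ g}, ψ ≠ D.o → (∀ l, l ≠ D.e → D.m l ψ = g) → 1 ≤ g := fun {ψ g} h1 h2 => by
    have := h2 k hk ▸ D.m_nonneg k ψ
    by_contra e
    exact h1 (D.ker ψ fun l hl => by rw [h2 l hl]; omega)
  obtain ⟨g, ⟨h1, h2, h3⟩ | ⟨l, ε, h1, h2, h3, h4, h5⟩⟩ := D.types ψ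
  · exact ⟨g, N hψ h1, Or.inl ⟨h1, h2, h3 hψ⟩⟩
  refine ⟨g, ?_, Or.inr ⟨l, ε, h1, h2, h3, h4⟩⟩
  by_contra e
  obtain rfl : g = 0 := by have := h4 ▸ D.m_nonneg D.e ψ; omega
  obtain rfl : ε = 1 := by have := D.d_pos ψ; omega
  obtain ⟨b, b0, b1, b2, b3⟩ := D.prod ψ
  rw [sum_congr rfl (g := fun k => D.c l k) fun j _ => by
    by_cases e : j = D.e
    · simp [e, h4, D.c_e' l h1]
    · rcases D.c_cases l j h1 with f | f <;> simp [h3 j e, f], D.c_card l h1] at b3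
  obtain ⟨χ, c1, c2⟩ : ∃ χ, χ ≠ D.o ∧ b χ * D.m D.e χ ≠ 0 := by
    by_contra! hh
    rw [sum_eq_single D.o (fun χ _ e => hh χ e) (by simp), b1, D.m_e] at b3
    omega
  have c3 : 1 ≤ b χ := by have := b0 χ; have := left_ne_zero_of_mul c2; omega
  have c4 : 1 ≤ D.m D.e χ := by have := D.m_nonneg D.e χ; have := right_ne_zero_of_mul c2; omega
  have c5 := sum_sub_le (fun χ => b χ * D.d χ) (fun i => mul_nonneg (b0 i) (D.d_pos i).le) {χ}
  rw [sum_singleton, b2, h5] at c5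
  have c6 : D.d χ ≤ 49 := by nlinarith [D.d_pos χ]
  obtain ⟨g, ⟨h1, h2, h3⟩ | ⟨l, ε, h1, h2, h3, h4, h5⟩⟩ := D.types χ
  · have := N c1 h1
    nlinarith [h3 c1]
  · rcases h2 with rfl | rfl <;> nlinarith

theorem main {n : ℤ} (hn : n ≤ 7) (a : I → ℤ) (a0 : ∀ χ, 0 ≤ a χ) (a1 : 1 ≤ a D.o)
    (a2 : ∀ l, ∑ χ, a χ * D.m l χ = n) : ∑ χ, a χ * a χ = 2 ∨ ∃ (ψ : I) (g x : ℤ), 1 ≤ g ∧ g ≤ n ∧
      (x = 1 ∨ x = 2) ∧ ¬ (g = n ∧ x = 1) ∧ D.d ψ = g * Fintype.card Λ - x := by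
  have le : ∀ l s, ∑ χ ∈ s, a χ * D.m l χ ≤ n := fun l s =>
    a2 l ▸ sum_sub_le _ (fun i => mul_nonneg (a0 i) (D.m_nonneg l i)) s
  have ex : ∀ l, l ≠ D.e → ∃ ψ, 1 ≤ a ψ ∧ D.m D.e ψ < D.m l ψ := fun l hl => by
    by_contra! hh
    have := sum_lt_sum (s := univ) (f := fun χ => a χ * D.m l χ) (g := fun χ => a χ * D.m D.e χ)
      (fun χ _ => by
        rcases (a0 χ).eq_or_lt with e | e
        · simp [← e]
        · exact mul_le_mul_of_nonneg_left (hh χ e) (a0 χ)) ⟨D.o, mem_univ _, by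
      rw [D.m_o l hl, D.m_e]; omega⟩
    simp [a2] at this
  have : Nonempty I := ⟨D.o⟩
  choose! ψ p1 p2 using ex
  have po : ∀ l, l ≠ D.e → ψ l ≠ D.o := fun l hl e => by
    have := p2 l hl; rw [e, D.m_o l hl, D.m_e] at this; omega
  by_cases H : ∃ l, l ≠ D.e ∧ ∃ g, 1 ≤ g ∧ D.m l (ψ l) = g ∧
      D.d (ψ l) = g * Fintype.card Λ + (D.m D.e (ψ l) - g) ∧ (D.m D.e (ψ l) - g) ^ 2 ≤ 7
  · obtain ⟨l, hl, g, g1, g2, g3, g4⟩ := H
    have b1 := p1 l hl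
    have b2 := p2 l hl
    have b3 := le l {ψ l}
    rw [sum_singleton, g2] at b3
    by_cases e : g = n ∧ g - D.m D.e (ψ l) = 1
    · left
      have s : ∑ χ, a χ * D.d χ = n * Fintype.card Λ := by
        simp only [← D.sum_m, mul_sum]; rw [sum_comm]; simp [a2, mul_comm]
      have do1 := D.sum_m D.o
      rw [sum_eq_single D.e (fun l _ hl => D.m_o l hl) (by simp), D.m_e] at do1
      have nn : ∀ i, 0 ≤ a i * D.d i := fun i => mul_nonneg (a0 i) (D.d_pos i).le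
      have s2 := sum_sub_le _ nn {D.o, ψ l}
      rw [sum_pair (po l hl).symm, s, ← do1] at s2
      have dp := D.d_pos (ψ l)
      have e1 : a (ψ l) = 1 := by nlinarith
      have e2 : a D.o = 1 := by nlinarith
      rw [← sum_subset (subset_univ {D.o, ψ l}) fun φ _ hφ => ?_, sum_pair (po l hl).symm, e1, e2]
      · rfl
      have s3 := sum_sub_le _ nn (insert φ {D.o, ψ l})
      rw [sum_insert hφ, sum_pair (po l hl).symm, s, ← do1, e1, e2] at s3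
      rw [show a φ = 0 by nlinarith [D.d_pos φ, a0 φ], mul_zero]
    · exact Or.inr ⟨ψ l, g, g - D.m D.e (ψ l), g1, by nlinarith, by
        have : g - D.m D.e (ψ l) < 3 := by nlinarith
        omega, e, by linarith⟩
  exfalso
  have H' : ∀ l, l ≠ D.e → 1 ≤ D.m D.e (ψ l) ∧ ∀ k, k ≠ D.e → ψ k = ψ l → D.c k l = 1 := fun l hl => by
    obtain ⟨g, g1, ⟨h1, h2, h3⟩ | ⟨j, ε, h1, h2, h3, h4⟩⟩ := D.types' (po l hl)
    · exact absurd ⟨l, hl, g, g1, h1 l hl, h2, h3⟩ H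
    have : ∀ k, k ≠ D.e → ψ k = ψ l → D.c j k = 1 := fun k hk e =>
      (D.c_cases j k h1).resolve_left fun f => by
        have := p2 k hk
        rw [e, h4, h3 k hk, f] at this; omega
    exact ⟨h4 ▸ g1, fun k hk e => D.c_trans h1 (this k hk e) (this l hl rfl)⟩
  obtain ⟨k, hk, -⟩ := D.exists_new ∅ (by simp) (by simp)
  obtain ⟨s, -, s2, s3, s4⟩ := D.fam hk 7 le_rfl
  have := card_nsmul_le_sum (s.image ψ) (fun χ => a χ * D.m D.e χ) 1 (by
    simp only [mem_image]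
    rintro _ ⟨l, hl, rfl⟩
    nlinarith [p1 l (s3 l hl), (H' l (s3 l hl)).1])
  rw [card_image_of_injOn fun a ha b hb e => by
    by_contra ab
    simpa [s4 a ha b hb ab] using (H' b (s3 b hb)).2 a (s3 a ha) e, s2] at this
  have := le D.e (s.image ψ)
  simp at *
  omega

end XD

end Cfsg.Agent.H2.S7
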