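import Cfsg.Agent.H6.S5.B

/-! Degrees which do not divide the order of `SL_7(q)`. -/

set_option autoImplicit false

namespace Cfsg.Agent.H2.S7

open Cfsg.Agent.H6.S5 (Rd)

variable {D r : ℤ}

theorem rd_pp {q : ℕ} (hq : IsPrimePow q) (n : ℕ) (u : ℤ) (e : D = q * u + r) (r0 : r ≠ 0)
    (hr : |r| < q) : Rd D (q ^ n) r := fun Y h => by
  obtain ⟨p, k, hp, -, rfl⟩ := (isPrimePow_nat_iff q).1 hq
  refine (dvd_mul_gcd_of_dvd_mul h).trans (mul_dvd_mul_left _ ?_)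
  obtain ⟨j, -, f⟩ := (dvd_prime_pow (Nat.prime_iff_prime_int.1 hp) (k * n)).1
    (by simpa [pow_mul] using gcd_dvd_right D _ : gcd D (((p ^ k : ℕ) : ℤ) ^ n) ∣ _)
  have := f.symm.dvd.trans (gcd_dvd_left _ _)
  rcases le_total j k with l | l
  · rw [e] at this
    exact f.dvd.trans ((dvd_add_right (((pow_dvd_pow _ l).trans (by simp)).mul_right u)).1 this)
  · have := (pow_dvd_pow _ l).trans this
    rw [e, dvd_add_right (by simp)] at this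
    exact absurd (Int.le_of_dvd (abs_pos.2 r0) ((dvd_abs _ _).2 this)) (by simpa using hr)

/-- the order of `SL_7(q)` -/
def ord7 (q : ℤ) : ℤ :=
  q ^ 21 * (q ^ 2 - 1) * (q ^ 3 - 1) * (q ^ 4 - 1) * (q ^ 5 - 1) * (q ^ 6 - 1) * (q ^ 7 - 1)

theorem ord7_eq (q : ℤ) : ord7 q = q ^ 21 * (q - 1) ^ 6 * (q + 1) ^ 3 * (q ^ 2 + q + 1) ^ 2 * (q ^ 2 + 1) *
    (q ^ 4 + q ^ 3 + q ^ 2 + q + 1) * (q ^ 2 - q + 1) *
    (q ^ 6 + q ^ 5 + q ^ 4 + q ^ 3 + q ^ 2 + q + 1) := by rw [ord7]; ring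

theorem bound {q : ℕ} (hq : IsPrimePow q) {g c d : ℤ} (r0 : g - c ≠ 0) (hr : |g - c| < q)
    (h : g * (q ^ 6 + q ^ 5 + q ^ 4 + q ^ 3 + q ^ 2 + q + 1) - c ∣ d * ord7 q) :
    g * (q ^ 6 + q ^ 5 + q ^ 4 + q ^ 3 + q ^ 2 + q + 1) - c ∣ d * ((g - c) * (7 * g - c) ^ 6 * (g - c) ^ 3 *
      (g - c) ^ 2 * (g ^ 2 + c ^ 2) *
      ((g - c) ^ 4 - (g - c) ^ 3 * g + (g - c) ^ 2 * g ^ 2 - (g - c) * g ^ 3 + g ^ 4) * (g - c) * c) :=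
  ((((((((rd_pp hq 21 (g * (q ^ 5 + q ^ 4 + q ^ 3 + q ^ 2 + q + 1)) (by ring) r0 hr).mul
    ((Rd.of (a := q - 1) (-g * (q ^ 5 + 2 * q ^ 4 + 3 * q ^ 3 + 4 * q ^ 2 + 5 * q + 6)) 1
      (by ring)).pow 6)).mul
    ((Rd.of (a := q + 1) (-g * (q ^ 5 + q ^ 3 + q)) 1 (by ring)).pow 3)).mul
    ((Rd.of (a := q ^ 2 + q + 1) (-g * (q ^ 4 + q)) 1 (by ring)).pow 2)).mul
    (Rd.of (a := q ^ 2 + 1) (g * (q ^ 5 * g + q ^ 4 * g + q ^ 4 * c + q ^ 3 * c + q * g + g + c))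
      (-(g * q + c)) (by ring))).mul
    (Rd.of (a := q ^ 4 + q ^ 3 + q ^ 2 + q + 1) (q ^ 5 * g ^ 4 + q ^ 4 * g ^ 3 * c + q ^ 3 * g ^ 4 -
      q ^ 3 * g ^ 3 * c + q ^ 3 * g ^ 2 * c ^ 2 + 2 * q ^ 2 * g ^ 3 * c - 2 * q ^ 2 * g ^ 2 * c ^ 2 +
      q ^ 2 * g * c ^ 3 + g ^ 4) (-q ^ 3 * g ^ 3 - q ^ 2 * g ^ 2 * c - q * g ^ 3 + q * g ^ 2 * c -
      q * g * c ^ 2 - 2 * g ^ 2 * c + 2 * g * c ^ 2 - c ^ 3) (by ring))).mul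
    (Rd.of (a := q ^ 2 - q + 1) (-g * (q ^ 4 + 2 * q ^ 3 + 2 * q ^ 2 + q)) 1 (by ring))).mul
    (Rd.of (a := q ^ 6 + q ^ 5 + q ^ 4 + q ^ 3 + q ^ 2 + q + 1) g (-1) (by ring))) d (ord7_eq q ▸ h)

theorem bound' {q : ℕ} (hq : IsPrimePow q) (hr : 7 ≤ q)
    (h : (q ^ 6 + q ^ 5 + q ^ 4 + q ^ 3 + q ^ 2 + q + 1 - 7 : ℤ) ∣ 7 * ord7 q) :
    (q ^ 5 + 2 * q ^ 4 + 3 * q ^ 3 + 4 * q ^ 2 + 5 * q + 6 : ℤ) ∣
      7 * (6 * 21 ^ 5 * 3 ^ 3 * 6 ^ 2 * 50 * 1555 * 6 * 7) := by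
  refine ((((((((rd_pp hq 21 (q ^ 4 + 2 * q ^ 3 + 3 * q ^ 2 + 4 * q + 5) (by ring) (by simp)
    (by simpa)).mul
    ((Rd.of (a := q - 1) (-(q ^ 4 + 3 * q ^ 3 + 6 * q ^ 2 + 10 * q + 15)) 1 (by ring)).pow 5)).mul
    ((Rd.of (a := q + 1) (-(q ^ 4 + q ^ 3 + 2 * q ^ 2 + 2 * q + 3)) 1 (by ring)).pow 3)).mul
    ((Rd.of (a := q ^ 2 + q + 1) (q ^ 4 + q) (1 - q) (by ring)).pow 2)).mul
    (Rd.of (a := q ^ 2 + 1) (q ^ 5 + 8 * q ^ 4 + 7 * q ^ 3 + q + 8) (-q ^ 2 - 6 * q + 7) (by ring))).mul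
    (Rd.of (a := q ^ 4 + q ^ 3 + q ^ 2 + q + 1) (q ^ 5 + 7 * q ^ 4 + 43 * q ^ 3 + 259 * q ^ 2 + 1)
      (-q ^ 4 - 6 * q ^ 3 - 36 * q ^ 2 - 216 * q + 259) (by ring))).mul
    (Rd.of (a := q ^ 2 - q + 1) (q ^ 4 + 2 * q ^ 3 + 2 * q ^ 2 + q) (1 - q) (by ring))).mul
    (Rd.of (a := q ^ 6 + q ^ 5 + q ^ 4 + q ^ 3 + q ^ 2 + q + 1) 1 (1 - q) (by ring))) 7 ?_
  refine (mul_dvd_mul_iff_left (show (q - 1 : ℤ) ≠ 0 by omega)).1 ?_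
  exact (Dvd.intro 1 (by ring)).trans (h.trans (Dvd.intro 1 (by rw [ord7_eq]; ring)))

theorem small : ∀ k : Fin 950, ∀ g : Fin 7, ∀ x : Fin 2, ¬ (g = 6 ∧ x = 0) →
    (7 * ord7 (7 * k.1 + 8)) % ((g.1 + 1) * ((7 * k.1 + 8) ^ 6 + (7 * k.1 + 8) ^ 5 + (7 * k.1 + 8) ^ 4 +
      (7 * k.1 + 8) ^ 3 + (7 * k.1 + 8) ^ 2 + (7 * k.1 + 8) + 1) - 7 * (x.1 + 1)) ≠ 0 := by
  decide +kernel

theorem num {q t d : ℕ} (hq : IsPrimePow q)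
    (ht : d * t = q ^ 6 + q ^ 5 + q ^ 4 + q ^ 3 + q ^ 2 + q + 1)
    (hd : d = 1 ∨ d = 7 ∧ q % 7 = 1) {g x : ℤ} (g1 : 1 ≤ g) (g2 : g ≤ d) (hx : x = 1 ∨ x = 2)
    (hn : ¬ (g = d ∧ x = 1)) : ¬ g * t - x ∣ ord7 q := fun h => by
  have h2 := hq.two_le
  replace h := mul_dvd_mul_left (d : ℤ) h
  rw [mul_sub, mul_left_comm, ← Nat.cast_mul, ht] at h
  push_cast at h
  have lt : ∀ {n : ℕ} {K : ℤ}, K ≠ 0 → g * (q ^ 6 + q ^ 5 + q ^ 4 + q ^ 3 + q ^ 2 + q + 1) - d * x ∣ K →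
      |K| < g * n ^ 6 → d ≤ 7 → q < n := fun {n K} k0 e l d5 => by
    by_contra! hh
    have a := Int.le_of_dvd (abs_pos.2 k0) ((dvd_abs _ _).2 e)
    have b : (n : ℤ) ^ 6 ≤ q ^ 6 := by gcongr
    have c : (2 : ℤ) ≤ q := by exact_mod_cast h2
    have d' : (d : ℤ) ≤ 7 := by exact_mod_cast d5
    have c4 := pow_le_pow_left₀ (by decide) c 4
    have : (14 : ℤ) ≤ q ^ 5 + q ^ 4 + q ^ 3 + q ^ 2 + q + 1 := by
      have : (0 : ℤ) ≤ q ^ 5 + q ^ 3 + q ^ 2 := by positivity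
      linarith
    rcases hx with rfl | rfl <;> nlinarith
  rcases hd with rfl | ⟨rfl, h5⟩
  · obtain rfl : g = 1 := by omega
    obtain rfl : x = 2 := by omega
    have := lt (n := 10) (by decide) (bound hq (by decide) (by norm_num; omega) h) (by decide) (by decide)
    interval_cases q <;> revert h <;> decide +kernel
  have : q < 6600 := by
    by_contra! hh
    by_cases e : g = x
    · subst e
      have := Int.le_of_dvd (by decide) (bound' hq (by omega)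
        ((Dvd.intro_left g (by push_cast; ring)).trans h))
      have c : (6600 : ℤ) ≤ q := by exact_mod_cast hh
      have c5 := pow_le_pow_left₀ (by decide) c 5
      have : (0 : ℤ) ≤ 2 * q ^ 4 + 3 * q ^ 3 + 4 * q ^ 2 + 5 * q := by positivity
      norm_num at *
      linarith
    · refine absurd (lt (n := 6600) ?_ (bound hq (by omega) (by rw [abs_lt]; omega) h) ?_ le_rfl)
        (by omega) <;>
        rcases hx with rfl | rfl <;> interval_cases g <;> simp_all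
  obtain ⟨g, rfl⟩ : ∃ k : ℕ, g = k + 1 := ⟨(g - 1).toNat, by omega⟩
  obtain ⟨x, rfl⟩ : ∃ k : ℕ, x = k + 1 := ⟨(x - 1).toNat, by omega⟩
  obtain ⟨k, rfl⟩ : ∃ k : ℕ, q = 7 * k + 8 := ⟨(q - 8) / 7, by omega⟩
  exact small ⟨k, by omega⟩ ⟨g, by omega⟩ ⟨x, by omega⟩ (by simp [Fin.ext_iff]; omega)
    (Int.emod_eq_zero_of_dvd (by simpa using h))

end Cfsg.Agent.H2.S7
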